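import Cfsg.Agent.Lib.Jordan.Sharp
import Cfsg.Agent.Lib.Golay.Stab
import Cfsg.Prelude.Def_Sporadic

/-!
Sharply multiply transitive groups: orders and simplicity in degrees 11 and 12, degrees for k ≥ 6.
-/

set_option autoImplicit false

namespace Cfsg.Agent.Lib.Jordan

open Finset

variable {α : Type*} [Fintype α] [DecidableEq α]

theorem deg6 {G : Subgroup (Equiv.Perm α)} (hG : ShL G 6) (h6 : 6 ≤ Fintype.card α) :
    Fintype.card α = 6 ∨ Fintype.card α = 7 ∨ Fintype.card α = 8 := by
  classical
  have hne : Nonempty α := Fintype.card_pos_iff.1 (by omega)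
  obtain ⟨p⟩ := hne
  have h0 := deg5 (step hG p) (by rw [card_ne]; omega)
  rw [card_ne] at h0
  by_contra hcon
  have h13 : Fintype.card α = 13 := by omega
  obtain ⟨l, hl, hl4⟩ := exists_list h6
  obtain ⟨a, b, e1, e2, e3, e4, rfl⟩ : ∃ a b c d e f, l = [a, b, c, d, e, f] := by
    match l, hl4 with
    | [a, b, c, d, e, f], _ => exact ⟨a, b, c, d, e, f, rfl⟩
  have hl' : [b, a, e1, e2, e3, e4].Nodup := by
    simp only [List.nodup_cons, List.mem_cons, List.not_mem_nil, or_false, not_or, not_false_eq_true, List.nodup_nil,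
      and_true] at hl ⊢
    tauto
  obtain ⟨t, ht, htl⟩ := hG.1 [a, b, e1, e2, e3, e4] [b, a, e1, e2, e3, e4] hl hl' rfl rfl
  simp only [List.map_cons, List.map_nil, List.cons.injEq, and_true] at htl
  obtain ⟨ta, tb, t1, t2, t3, t4⟩ := htl
  have htt : t * t = 1 := by
    apply hG.2 _ (G.mul_mem ht ht) [a, b, e1, e2, e3, e4] hl rfl
    intro x hx
    simp only [List.mem_cons, List.not_mem_nil, or_false] at hx
    show t (t x) = x
    rcases hx with rfl | rfl | rfl | rfl | rfl | rfl
    · rw [ta, tb]
    · rw [tb, ta]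
    · rw [t1, t1]
    · rw [t2, t2]
    · rw [t3, t3]
    · rw [t4, t4]
  have ht2 : ∀ x, t (t x) = x := fun x => congrArg (fun σ : Equiv.Perm α => σ x) htt
  have hab : a ≠ b := by
    simp only [List.nodup_cons, List.mem_cons, not_or] at hl
    exact hl.1.1
  set F := (Finset.univ : Finset α).filter (fun x => t x = x) with hF
  have memF : ∀ x, x ∈ F ↔ t x = x := by intro x; rw [hF, mem_filter]; simp
  have hF4 : 4 ≤ F.card := by
    have : ([e1, e2, e3, e4] : List α).toFinset ⊆ F := by
      intro x hx
      simp only [List.mem_toFinset, List.mem_cons, List.not_mem_nil, or_false] at hx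
      rw [memF]
      rcases hx with rfl | rfl | rfl | rfl <;> assumption
    have h := Finset.card_le_card this
    rwa [List.toFinset_card_of_nodup (by
      simp only [List.nodup_cons, List.mem_cons, List.not_mem_nil, or_false, not_or, not_false_eq_true, List.nodup_nil,
        and_true] at hl ⊢
      tauto)] at h
  have hF5 : F.card ≤ 5 := by
    by_contra hcon
    obtain ⟨s, hs1, hs2⟩ := Finset.exists_subset_card_eq (show 6 ≤ F.card by omega)
    have : t = 1 := hG.2 t ht s.toList s.nodup_toList (by rw [Finset.length_toList, hs2]) (fun x hx =>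
      (memF x).1 (hs1 (Finset.mem_toList.1 hx)))
    rw [this] at ta
    exact hab ta
  -- a further moved point
  have hex : ∃ c, t c ≠ c ∧ c ≠ a ∧ c ≠ b := by
    by_contra hc
    push Not at hc
    have h1 : (Finset.univ : Finset α) ⊆ F ∪ {a, b} := by
      intro x _
      rw [mem_union, memF, mem_insert, mem_singleton]
      by_cases h1 : t x = x
      · exact Or.inl h1
      · by_cases h2 : x = a
        · exact Or.inr (Or.inl h2)
        · exact Or.inr (Or.inr (hc x h1 h2))
    have h2 := (Finset.card_le_card h1).trans (Finset.card_union_le _ _)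
    rw [Finset.card_univ, h13, Finset.card_pair hab] at h2
    omega
  obtain ⟨c, hc1, hca, hcb⟩ := hex
  set d := t c with hd
  have td : t d = c := ht2 c
  have hda : d ≠ a := by
    intro h
    rw [h, ta] at td
    exact hcb td.symm
  have hdb : d ≠ b := by
    intro h
    rw [h, tb] at td
    exact hca td.symm
  have hP : [a, b, c, d].Nodup := by
    simp only [List.nodup_cons, List.mem_cons, List.not_mem_nil, or_false, not_or, not_false_eq_true, List.nodup_nil,
      and_true]
    exact ⟨⟨hab, hca.symm, hda.symm⟩, ⟨hcb.symm, hdb.symm⟩, hc1.symm⟩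
  set M := (Finset.univ : Finset α).filter (fun x => t x ≠ x ∧ x ∉ [a, b, c, d]) with hM
  have memM : ∀ x, x ∈ M ↔ t x ≠ x ∧ x ∉ [a, b, c, d] := by intro x; rw [hM, mem_filter]; simp
  have hPm : ∀ x ∈ [a, b, c, d], t x ≠ x := by
    intro x hx
    simp only [List.mem_cons, List.not_mem_nil, or_false] at hx
    rcases hx with rfl | rfl | rfl | rfl
    · rw [ta]; exact hab.symm
    · rw [tb]; exact hab
    · exact hc1
    · rw [td]; exact hc1.symm
  have hPt : ∀ x ∈ [a, b, c, d], t x ∈ [a, b, c, d] := by
    intro x hx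
    simp only [List.mem_cons, List.not_mem_nil, or_false] at hx ⊢
    rcases hx with rfl | rfl | rfl | rfl
    · rw [ta]; simp
    · rw [tb]; simp
    · right; right; right; exact hd.symm
    · rw [td]; simp
  have hcard : Fintype.card α = F.card + (M.card + 4) := by
    have e1 : (Finset.univ : Finset α) = F ∪ (M ∪ [a, b, c, d].toFinset) := by
      ext x
      simp only [mem_univ, mem_union, memF, memM, List.mem_toFinset, true_iff]
      tauto
    rw [← Finset.card_univ, e1, Finset.card_union_of_disjoint, Finset.card_union_of_disjoint,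
      List.toFinset_card_of_nodup hP]
    · rfl
    · rw [Finset.disjoint_left]
      intro x hx hx'
      rw [memM] at hx
      exact hx.2 (List.mem_toFinset.1 hx')
    · rw [Finset.disjoint_left]
      intro x hx hx'
      rw [memF] at hx
      rw [mem_union, memM] at hx'
      rcases hx' with hx' | hx'
      · exact hx'.1 hx
      · exact hPm x (List.mem_toFinset.1 hx') hx
  have hMne : M.Nonempty := by rw [← Finset.card_pos]; omega
  have hk := key hG ht ht2 hP rfl hPt hPm memM memF hMne (by omega)
  have : F.card = 4 ∨ F.card = 5 := by omega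
  rcases this with h | h
  · rw [h] at hk hcard; omega
  · rw [h] at hk hcard; omega

theorem deg_ge6 (k : ℕ) (hk : 6 ≤ k) : ∀ {β : Type*} [Fintype β] [DecidableEq β] {G : Subgroup (Equiv.Perm β)}, ShL G k → k ≤ Fintype.card β →
    Fintype.card β = k ∨ Fintype.card β = k + 1 ∨ Fintype.card β = k + 2 := by
  induction k, hk using Nat.le_induction with
  | base => intro β _ _ G hG hn; exact deg6 hG hn
  | succ k hk ih =>
    intro β _ _ G hG hn
    have hne : Nonempty β := Fintype.card_pos_iff.1 (by omega)
    obtain ⟨p⟩ := hne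
    have h0 := ih (step hG p) (by rw [card_ne]; omega)
    rw [card_ne] at h0
    omega

/-- order -/
theorem card_shL {G : Subgroup (Equiv.Perm α)} {k : ℕ} (hG : ShL G k) (hk : k ≤ Fintype.card α) :
    Nat.card G = (Fintype.card α).descFactorial k := by
  have hne : Nonempty (Fin k ↪ α) := Function.Embedding.nonempty_of_card_le (by rwa [Fintype.card_fin])
  obtain ⟨x⟩ := hne
  have hL : ∀ y : Fin k ↪ α, (List.ofFn y).Nodup := fun y => List.nodup_ofFn.2 y.injective
  have hb : Function.Bijective (fun g : G => (x.trans (g : Equiv.Perm α).toEmbedding : Fin k ↪ α)) := by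
    constructor
    · intro g g' h
      have h1 : (g : Equiv.Perm α)⁻¹ * g' = 1 := by
        apply hG.2 _ (G.mul_mem (G.inv_mem g.2) g'.2) (List.ofFn x) (hL x) (by simp)
        intro y hy
        rw [List.mem_ofFn] at hy
        obtain ⟨i, rfl⟩ := hy
        show (g : Equiv.Perm α)⁻¹ ((g' : Equiv.Perm α) (x i)) = x i
        have h2 : (g : Equiv.Perm α) (x i) = (g' : Equiv.Perm α) (x i) :=
          congrArg (fun z : Fin k ↪ α => z i) h
        rw [← h2]
        exact (g : Equiv.Perm α).symm_apply_apply _
      rw [inv_mul_eq_one] at h1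
      exact Subtype.ext h1
    · intro y
      obtain ⟨g, hg, hgl⟩ := hG.1 (List.ofFn x) (List.ofFn y) (hL x) (hL y) (by simp) (by simp)
      refine ⟨⟨g, hg⟩, ?_⟩
      rw [List.map_ofFn] at hgl
      have := List.ofFn_injective hgl
      ext i
      exact congrFun this i
  rw [Nat.card_congr (Equiv.ofBijective _ hb), Nat.card_eq_fintype_card, Fintype.card_embedding_eq, Fintype.card_fin]

theorem extend_list {l : List α} (hl : l.Nodup) {k : ℕ} (h1 : l.length ≤ k) (h2 : k ≤ Fintype.card α) :
    ∃ l' : List α, (l ++ l').Nodup ∧ (l ++ l').length = k := by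
  have h3 : k - l.length ≤ (Finset.univ \ l.toFinset).card := by
    rw [Finset.card_sdiff_of_subset (Finset.subset_univ _), Finset.card_univ, List.toFinset_card_of_nodup hl]
    omega
  obtain ⟨s, hs1, hs2⟩ := Finset.exists_subset_card_eq h3
  refine ⟨s.toList, ?_, ?_⟩
  · rw [List.nodup_append]
    refine ⟨hl, s.nodup_toList, ?_⟩
    rintro a ha _ hb rfl
    have := hs1 (Finset.mem_toList.1 hb)
    rw [mem_sdiff] at this
    exact this.2 (List.mem_toFinset.2 ha)
  · rw [List.length_append, Finset.length_toList, hs2]; omega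

/-- transitivity on shorter sequences -/
theorem ShL.short {G : Subgroup (Equiv.Perm α)} {k : ℕ} (hG : ShL G k) (hk : k ≤ Fintype.card α) {l l' : List α}
    (hl : l.Nodup) (hl' : l'.Nodup) (h1 : l.length = l'.length) (h2 : l.length ≤ k) : ∃ g ∈ G, l.map g = l' := by
  obtain ⟨m, hm, hmk⟩ := extend_list hl h2 hk
  obtain ⟨m', hm', hmk'⟩ := extend_list hl' (h1 ▸ h2) hk
  obtain ⟨g, hg, hgl⟩ := hG.1 _ _ hm hm' hmk hmk'
  rw [List.map_append] at hgl
  exact ⟨g, hg, (List.append_inj hgl (by rw [List.length_map, h1])).1⟩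

end Cfsg.Agent.Lib.Jordan
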