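import Mathlib

/-!
Sharply multiply transitive groups (Jordan).
-/

set_option autoImplicit false

namespace Cfsg.Agent.Lib.Jordan

open Finset

variable {α : Type*} [Fintype α] [DecidableEq α]

/-- sharp `k`-transitivity in terms of lists -/
def ShL (G : Subgroup (Equiv.Perm α)) (k : ℕ) : Prop :=
  (∀ l l' : List α, l.Nodup → l'.Nodup → l.length = k → l'.length = k → ∃ g ∈ G, l.map g = l') ∧
  (∀ g ∈ G, ∀ l : List α, l.Nodup → l.length = k → (∀ x ∈ l, g x = x) → g = 1)

/-- the embedding of a list -/
def embL {k : ℕ} (l : List α) (h : l.Nodup) (hk : l.length = k) : Fin k ↪ α :=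
  ⟨fun i => l.get (i.cast hk.symm), fun i j hij => by
    have := List.nodup_iff_injective_get.1 h hij
    simpa using this⟩

theorem shL_of {G : Subgroup (Equiv.Perm α)} {k : ℕ} (h1 : ∀ x y : Fin k ↪ α, ∃ g ∈ G, ∀ i, g (x i) = y i)
    (h2 : ∀ x : Fin k ↪ α, MulAction.stabilizer G x = ⊥) : ShL G k := by
  refine ⟨?_, ?_⟩
  · intro l l' hl hl' hk hk'
    obtain ⟨g, hg, h⟩ := h1 (embL l hl hk) (embL l' hl' hk')
    refine ⟨g, hg, ?_⟩
    apply List.ext_get
    · rw [List.length_map, hk, hk']
    · intro n hn hn'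
      have := h ⟨n, by rw [← hk']; exact hn'⟩
      simpa [embL] using this
  · intro g hg l hl hk h
    have h3 := h2 (embL l hl hk)
    have h4 : (⟨g, hg⟩ : G) ∈ MulAction.stabilizer G (embL l hl hk) := by
      rw [MulAction.mem_stabilizer_iff]
      ext i
      exact h _ (List.get_mem _ _)
    rw [h3, Subgroup.mem_bot] at h4
    exact congrArg Subtype.val h4

theorem shL_of_pre {G : Subgroup (Equiv.Perm α)} {k : ℕ} [h : MulAction.IsMultiplyPretransitive G α k]
    (h2 : ∀ x : Fin k ↪ α, MulAction.stabilizer G x = ⊥) : ShL G k := by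
  apply shL_of _ h2
  intro x y
  obtain ⟨g, hg⟩ := h.exists_smul_eq x y
  refine ⟨g, g.2, fun i => ?_⟩
  rw [← hg]; rfl

theorem map_self {g : Equiv.Perm α} {P : List α} (h : P.map g = P) : ∀ x ∈ P, g x = x := by
  induction P with
  | nil => simp
  | cons a P ih =>
    rw [List.map_cons, List.cons.injEq] at h
    intro x hx
    rcases List.mem_cons.1 hx with rfl | hx
    · exact h.1
    · exact ih h.2 x hx

/-- the counting lemma -/
theorem key {G : Subgroup (Equiv.Perm α)} {k : ℕ} (hG : ShL G k) {t : Equiv.Perm α} (ht : t ∈ G) (ht2 : ∀ x, t (t x) = x)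
    {P : List α} (hP : P.Nodup) (hPk : P.length + 2 = k) (hPt : ∀ x ∈ P, t x ∈ P) (hPm : ∀ x ∈ P, t x ≠ x)
    {M F : Finset α} (hM : ∀ x, x ∈ M ↔ t x ≠ x ∧ x ∉ P) (hF : ∀ x, x ∈ F ↔ t x = x) (hMne : M.Nonempty)
    (hF2 : 2 ≤ F.card) : M.card = F.card * (F.card - 1) := by
  classical
  set D : Finset (Equiv.Perm α) := Finset.univ.filter (fun g => g ∈ G ∧ (∀ x ∈ P, g x = x) ∧ ∀ x, g (t x) = t (g x)) with hD
  have memD : ∀ g, g ∈ D ↔ g ∈ G ∧ (∀ x ∈ P, g x = x) ∧ ∀ x, g (t x) = t (g x) := by
    intro g; rw [hD, mem_filter]; simp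
  have hPt' : ∀ x, t x ∈ P → x ∈ P := by
    intro x hx
    have := hPt _ hx
    rwa [ht2] at this
  -- tuples
  have nd1 : ∀ z ∈ M, (P ++ [z, t z]).Nodup := by
    intro z hz
    rw [hM] at hz
    rw [List.nodup_append]
    refine ⟨hP, ?_, ?_⟩
    · simp only [List.nodup_cons, List.mem_cons, List.not_mem_nil, or_false, not_false_eq_true, List.nodup_nil, and_true]
      exact fun e => hz.1 e.symm
    · intro a ha b hb hab
      subst hab
      simp only [List.mem_cons, List.not_mem_nil, or_false] at hb
      rcases hb with rfl | rfl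
      · exact hz.2 ha
      · exact hz.2 (hPt' _ ha)
  have nd2 : ∀ x ∈ F, ∀ y ∈ F, x ≠ y → (P ++ [x, y]).Nodup := by
    intro x hx y hy hxy
    rw [hF] at hx hy
    rw [List.nodup_append]
    refine ⟨hP, ?_, ?_⟩
    · simp [hxy]
    · intro a ha b hb hab
      subst hab
      simp only [List.mem_cons, List.not_mem_nil, or_false] at hb
      rcases hb with rfl | rfl
      · exact hPm _ ha hx
      · exact hPm _ ha hy
  have len : ∀ x y : α, (P ++ [x, y]).length = k := by
    intro x y; rw [List.length_append, ← hPk]; rfl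
  -- an element of G agreeing suitably commutes with t
  have comm : ∀ g ∈ G, (∀ x ∈ P, g x = x) → ∀ l' : List α, l'.Nodup → l'.length = k → (∀ y ∈ l', g (t (g⁻¹ y)) = t y) →
      ∀ x, g (t x) = t (g x) := by
    intro g hg hgP l' h1 h2 h3
    have h4 : g * t * g⁻¹ * t = 1 := by
      -- fixes t-images
      apply hG.2 _ (G.mul_mem (G.mul_mem (G.mul_mem hg ht) (G.inv_mem hg)) ht) (l'.map t) ((List.nodup_map_iff t.injective).2 h1)
        (by rw [List.length_map, h2])
      intro y hy
      rw [List.mem_map] at hy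
      obtain ⟨z, hz, rfl⟩ := hy
      show g (t (g⁻¹ (t (t z)))) = t z
      rw [ht2, h3 z hz]
    intro x
    have h5 := congrArg (fun σ : Equiv.Perm α => σ (t (g x))) h4
    have h6 : g (t (g⁻¹ (t (t (g x))))) = t (g x) := h5
    rw [ht2] at h6
    have h7 : g⁻¹ (g x) = x := g.symm_apply_apply x
    rw [h7] at h6
    exact h6
  have hinv : ∀ g : Equiv.Perm α, ∀ x y, g x = y → g⁻¹ y = x := by
    intro g x y h; rw [← h]; exact g.symm_apply_apply x
  obtain ⟨z0, hz0⟩ := hMne
  obtain ⟨e0, f0, he0, hf0, hef⟩ := Finset.one_lt_card_iff.1 (show 1 < F.card by omega)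
  have c1 : D.card = M.card := by
    refine Finset.card_bij (fun g _ => g z0) ?_ ?_ ?_
    · intro g hg
      rw [memD] at hg
      rw [hM] at hz0 ⊢
      refine ⟨?_, ?_⟩
      · intro h
        rw [← hg.2.2] at h
        exact hz0.1 (g.injective h)
      · intro h
        apply hz0.2
        have h1 := hg.2.1 _ h
        rw [g.injective h1] at h
        exact h
    · intro g hg g' hg' h
      rw [memD] at hg hg'
      have h1 : g⁻¹ * g' = 1 := by
        apply hG.2 _ (G.mul_mem (G.inv_mem hg.1) hg'.1) _ (nd1 z0 hz0) (len _ _)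
        intro x hx
        rw [List.mem_append] at hx
        show g⁻¹ (g' x) = x
        rcases hx with hx | hx
        · rw [hg'.2.1 x hx]; exact hinv g _ _ (hg.2.1 x hx)
        · simp only [List.mem_cons, List.not_mem_nil, or_false] at hx
          rcases hx with rfl | rfl
          · exact hinv g _ _ h
          · rw [hg'.2.2]
            apply hinv
            rw [hg.2.2]
            exact congrArg t h
      rw [inv_mul_eq_one] at h1
      exact h1
    · intro z hz
      obtain ⟨g, hg, hgl⟩ := hG.1 (P ++ [z0, t z0]) (P ++ [z, t z]) (nd1 z0 hz0) (nd1 z hz) (len _ _) (len _ _)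
      rw [List.map_append] at hgl
      obtain ⟨a1, a2⟩ := List.append_inj hgl (by rw [List.length_map])
      have a3 := map_self a1
      simp only [List.map_cons, List.map_nil, List.cons.injEq, and_true] at a2
      refine ⟨g, ?_, a2.1⟩
      rw [memD]
      refine ⟨hg, a3, comm g hg a3 (P ++ [z, t z]) (nd1 z hz) (len _ _) ?_⟩
      intro y hy
      rw [List.mem_append] at hy
      rcases hy with hy | hy
      · rw [hinv g y y (a3 y hy), a3 _ (hPt y hy)]
      · simp only [List.mem_cons, List.not_mem_nil, or_false] at hy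
        rcases hy with rfl | rfl
        · rw [hinv g z0 _ a2.1, a2.2]
        · rw [hinv g _ _ a2.2, ht2, ht2, a2.1]
  have c2 : D.card = F.offDiag.card := by
    refine Finset.card_bij (fun g _ => (g e0, g f0)) ?_ ?_ ?_
    · intro g hg
      rw [memD] at hg
      rw [mem_offDiag]
      rw [hF] at he0 hf0
      refine ⟨(hF _).2 ?_, (hF _).2 ?_, fun h => hef (g.injective h)⟩
      · show t (g e0) = g e0
        rw [← hg.2.2, he0]
      · show t (g f0) = g f0
        rw [← hg.2.2, hf0]
    · intro g hg g' hg' h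
      rw [memD] at hg hg'
      rw [Prod.mk.injEq] at h
      have h1 : g⁻¹ * g' = 1 := by
        apply hG.2 _ (G.mul_mem (G.inv_mem hg.1) hg'.1) _ (nd2 e0 he0 f0 hf0 hef) (len _ _)
        intro x hx
        rw [List.mem_append] at hx
        show g⁻¹ (g' x) = x
        rcases hx with hx | hx
        · rw [hg'.2.1 x hx]; exact hinv g _ _ (hg.2.1 x hx)
        · simp only [List.mem_cons, List.not_mem_nil, or_false] at hx
          rcases hx with rfl | rfl
          · exact hinv g _ _ h.1
          · exact hinv g _ _ h.2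
      rw [inv_mul_eq_one] at h1
      exact h1
    · rintro ⟨x, y⟩ hxy
      rw [mem_offDiag] at hxy
      obtain ⟨hx, hy, hne⟩ := hxy
      obtain ⟨g, hg, hgl⟩ := hG.1 (P ++ [e0, f0]) (P ++ [x, y]) (nd2 e0 he0 f0 hf0 hef) (nd2 x hx y hy hne) (len _ _) (len _ _)
      rw [List.map_append] at hgl
      obtain ⟨a1, a2⟩ := List.append_inj hgl (by rw [List.length_map])
      have a3 := map_self a1
      simp only [List.map_cons, List.map_nil, List.cons.injEq, and_true] at a2
      refine ⟨g, ?_, by rw [a2.1, a2.2]⟩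
      rw [memD]
      refine ⟨hg, a3, comm g hg a3 (P ++ [x, y]) (nd2 x hx y hy hne) (len _ _) ?_⟩
      intro w hw
      rw [List.mem_append] at hw
      rcases hw with hw | hw
      · rw [hinv g w w (a3 w hw), a3 _ (hPt w hw)]
      · simp only [List.mem_cons, List.not_mem_nil, or_false] at hw
        rcases hw with rfl | rfl
        · rw [hinv g e0 _ a2.1, (hF _).1 he0, (hF _).1 hx, a2.1]
        · rw [hinv g f0 _ a2.2, (hF _).1 hf0, (hF _).1 hy, a2.2]
  rw [← c1, c2, Finset.offDiag_card]
  exact (Nat.mul_sub_one _ _).symm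

/-- distinct points -/
theorem exists_list {n : ℕ} (h : n ≤ Fintype.card α) : ∃ l : List α, l.Nodup ∧ l.length = n := by
  obtain ⟨s, _, hs⟩ := Finset.exists_subset_card_eq (s := (Finset.univ : Finset α)) (n := n) (by rw [Finset.card_univ]; exact h)
  exact ⟨s.toList, s.nodup_toList, by rw [Finset.length_toList, hs]⟩

theorem deg4 {G : Subgroup (Equiv.Perm α)} (hG : ShL G 4) (h4 : 4 ≤ Fintype.card α) :
    Fintype.card α = 4 ∨ Fintype.card α = 5 ∨ Fintype.card α = 6 ∨ Fintype.card α = 11 := by
  classical
  by_cases h6 : Fintype.card α < 6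
  · omega
  obtain ⟨l, hl, hl4⟩ := exists_list h4
  obtain ⟨a, b, c, d, rfl⟩ : ∃ a b c d, l = [a, b, c, d] := by
    match l, hl4 with
    | [a, b, c, d], _ => exact ⟨a, b, c, d, rfl⟩
  simp only [List.nodup_cons, List.mem_cons, List.not_mem_nil, or_false, not_or, not_false_eq_true, List.nodup_nil,
    and_true] at hl
  obtain ⟨⟨hab, hac, had⟩, ⟨hbc, hbd⟩, hcd⟩ := hl
  obtain ⟨t, ht, htl⟩ := hG.1 [a, b, c, d] [b, a, c, d] (by simp [hab, hac, had, hbc, hbd, hcd])
    (by simp [Ne.symm hab, hac, had, hbc, hbd, hcd]) rfl rfl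
  simp only [List.map_cons, List.map_nil, List.cons.injEq, and_true] at htl
  obtain ⟨ta, tb, tc, td⟩ := htl
  have htt : t * t = 1 := by
    apply hG.2 _ (G.mul_mem ht ht) [a, b, c, d] (by simp [hab, hac, had, hbc, hbd, hcd]) rfl
    intro x hx
    simp only [List.mem_cons, List.not_mem_nil, or_false] at hx
    show t (t x) = x
    rcases hx with rfl | rfl | rfl | rfl
    · rw [ta, tb]
    · rw [tb, ta]
    · rw [tc, tc]
    · rw [td, td]
  have ht2 : ∀ x, t (t x) = x := fun x => congrArg (fun σ : Equiv.Perm α => σ x) htt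
  set F := (Finset.univ : Finset α).filter (fun x => t x = x) with hF
  set M := (Finset.univ : Finset α).filter (fun x => t x ≠ x ∧ x ∉ [a, b]) with hM
  have memF : ∀ x, x ∈ F ↔ t x = x := by intro x; rw [hF, mem_filter]; simp
  have memM : ∀ x, x ∈ M ↔ t x ≠ x ∧ x ∉ [a, b] := by intro x; rw [hM, mem_filter]; simp
  have hF2 : 2 ≤ F.card := by
    have : ({c, d} : Finset α) ⊆ F := by
      intro x hx
      rw [mem_insert, mem_singleton] at hx
      rw [memF]
      rcases hx with rfl | rfl
      · exact tc
      · exact td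
    have h := Finset.card_le_card this
    rwa [Finset.card_pair hcd] at h
  have hF3 : F.card ≤ 3 := by
    by_contra hcon
    obtain ⟨s, hs1, hs2⟩ := Finset.exists_subset_card_eq (show 4 ≤ F.card by omega)
    have : t = 1 := hG.2 t ht s.toList s.nodup_toList (by rw [Finset.length_toList, hs2]) (fun x hx =>
      (memF x).1 (hs1 (Finset.mem_toList.1 hx)))
    rw [this] at ta
    exact hab ta
  have hcard : Fintype.card α = F.card + (M.card + 2) := by
    have e1 : (Finset.univ : Finset α) = F ∪ (M ∪ {a, b}) := by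
      ext x
      simp only [mem_univ, mem_union, memF, memM, mem_insert, mem_singleton, List.mem_cons, List.not_mem_nil, or_false, true_iff]
      tauto
    rw [← Finset.card_univ, e1, Finset.card_union_of_disjoint, Finset.card_union_of_disjoint, Finset.card_pair hab]
    · rw [Finset.disjoint_left]
      intro x hx hx'
      rw [memM] at hx
      apply hx.2
      simpa using hx'
    · rw [Finset.disjoint_left]
      intro x hx hx'
      rw [memF] at hx
      rw [mem_union, memM] at hx'
      rcases hx' with hx' | hx'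
      · exact hx'.1 hx
      · rw [mem_insert, mem_singleton] at hx'
        rcases hx' with rfl | rfl
        · rw [ta] at hx; exact hab hx.symm
        · rw [tb] at hx; exact hab hx
  have hMne : M.Nonempty := by rw [← Finset.card_pos]; omega
  have hk := key hG ht ht2 (P := [a, b]) (by simp [hab]) rfl
    (by intro x hx; simp only [List.mem_cons, List.not_mem_nil, or_false] at hx ⊢; rcases hx with rfl | rfl
        · exact Or.inr ta
        · exact Or.inl tb)
    (by intro x hx; simp only [List.mem_cons, List.not_mem_nil, or_false] at hx; rcases hx with rfl | rfl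
        · rw [ta]; exact Ne.symm hab
        · rw [tb]; exact hab) memM memF hMne hF2
  have : F.card = 2 ∨ F.card = 3 := by omega
  rcases this with h | h
  · rw [h] at hk hcard; omega
  · rw [h] at hk hcard; omega

/-- the stabiliser of a point -/
def stp (G : Subgroup (Equiv.Perm α)) (p : α) : Subgroup (Equiv.Perm {x // x ≠ p}) := G.comap Equiv.Perm.ofSubtype

theorem step {G : Subgroup (Equiv.Perm α)} {k : ℕ} (hG : ShL G (k + 1)) (p : α) : ShL (stp G p) k := by
  refine ⟨?_, ?_⟩
  · intro l l' hl hl' hk hk'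
    have nd : ∀ l : List {x // x ≠ p}, l.Nodup → (p :: l.map Subtype.val).Nodup := by
      intro l hl
      rw [List.nodup_cons]
      refine ⟨?_, (List.nodup_map_iff Subtype.val_injective).2 hl⟩
      rw [List.mem_map]
      rintro ⟨x, _, hx⟩
      exact x.2 hx
    obtain ⟨g, hg, hgl⟩ := hG.1 (p :: l.map Subtype.val) (p :: l'.map Subtype.val) (nd l hl) (nd l' hl')
      (by rw [List.length_cons, List.length_map, hk]) (by rw [List.length_cons, List.length_map, hk'])
    rw [List.map_cons, List.cons.injEq, List.map_map] at hgl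
    obtain ⟨hgp, hgl⟩ := hgl
    have hp : ∀ x, g x ≠ p ↔ x ≠ p := by
      intro x
      constructor
      · rintro h rfl; exact h hgp
      · intro h h'
        rw [← hgp] at h'
        exact h (g.injective h')
    refine ⟨g.subtypePerm hp, ?_, ?_⟩
    · show Equiv.Perm.ofSubtype (g.subtypePerm hp) ∈ G
      rw [Equiv.Perm.ofSubtype_subtypePerm]
      · exact hg
      · rintro x hx rfl; exact hx hgp
    · apply (List.map_injective_iff.2 Subtype.val_injective)
      rw [List.map_map, ← hgl]
      rfl
  · intro σ hσ l hl hk h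
    have h1 : Equiv.Perm.ofSubtype σ = 1 := by
      apply hG.2 _ hσ (p :: l.map Subtype.val)
      · rw [List.nodup_cons]
        refine ⟨?_, (List.nodup_map_iff Subtype.val_injective).2 hl⟩
        rw [List.mem_map]
        rintro ⟨x, _, hx⟩
        exact x.2 hx
      · rw [List.length_cons, List.length_map, hk]
      · intro x hx
        rcases List.mem_cons.1 hx with rfl | hx
        · apply Equiv.Perm.ofSubtype_apply_of_not_mem
          simp
        · rw [List.mem_map] at hx
          obtain ⟨y, hy, rfl⟩ := hx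
          rw [Equiv.Perm.ofSubtype_apply_coe, h y hy]
    rw [← map_one (Equiv.Perm.ofSubtype (p := fun x => x ≠ p))] at h1
    exact Equiv.Perm.ofSubtype_injective h1

theorem card_ne (p : α) : Fintype.card {x // x ≠ p} = Fintype.card α - 1 := by
  rw [Fintype.card_subtype_compl]; simp

theorem deg5 {G : Subgroup (Equiv.Perm α)} (hG : ShL G 5) (h5 : 5 ≤ Fintype.card α) :
    Fintype.card α = 5 ∨ Fintype.card α = 6 ∨ Fintype.card α = 7 ∨ Fintype.card α = 12 := by
  have : Nonempty α := Fintype.card_pos_iff.1 (by omega)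
  obtain ⟨p⟩ := this
  have h := deg4 (step hG p) (by rw [card_ne]; omega)
  rw [card_ne] at h
  omega

end Cfsg.Agent.Lib.Jordan
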