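import Cfsg.Agent.Lib.Jordan.Order

/-!
Simplicity of sharply 4-transitive groups of degree 11 and sharply 5-transitive groups of degree 12.
-/

set_option autoImplicit false

namespace Cfsg.Agent.Lib.Jordan

open Finset Cfsg
open Cfsg.Agent.Lib.Golay (card_eq_orbit_mul orbit_eq_of_forall)

variable {α : Type*} [Fintype α] [DecidableEq α]

theorem norm_trans {G : Subgroup (Equiv.Perm α)} {k : ℕ} (hG : ShL G k) (h2 : 2 ≤ k) (hk : k ≤ Fintype.card α)
    {N : Subgroup (Equiv.Perm α)} (hN : ∀ g ∈ G, ∀ n ∈ N, g * n * g⁻¹ ∈ N) (hne : ∃ n ∈ N, n ≠ 1) (x y : α) :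
    ∃ n ∈ N, n x = y := by
  by_cases hxy : x = y
  · exact ⟨1, N.one_mem, hxy⟩
  obtain ⟨n, hn, hn1⟩ := hne
  obtain ⟨a, ha⟩ : ∃ a, n a ≠ a := by
    by_contra hc
    push Not at hc
    exact hn1 (Equiv.ext hc)
  obtain ⟨g, hg, hgl⟩ := hG.short hk (l := [a, n a]) (l' := [x, y]) (by simp [ha.symm]) (by simp [hxy]) rfl h2
  simp only [List.map_cons, List.map_nil, List.cons.injEq, and_true] at hgl
  refine ⟨g * n * g⁻¹, hN g hg n hn, ?_⟩
  show g (n (g⁻¹ x)) = y
  have : g⁻¹ x = a := by rw [← hgl.1]; exact g.symm_apply_apply a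
  rw [this, hgl.2]

theorem norm_trans2 {G : Subgroup (Equiv.Perm α)} {k : ℕ} (hG : ShL G k) (h2 : 3 ≤ k) (hk : k ≤ Fintype.card α)
    {N : Subgroup (Equiv.Perm α)} (hN : ∀ g ∈ G, ∀ n ∈ N, g * n * g⁻¹ ∈ N) (p : α) (hne : ∃ n ∈ N, n p = p ∧ n ≠ 1)
    (x y : α) (hx : x ≠ p) (hy : y ≠ p) : ∃ n ∈ N, n p = p ∧ n x = y := by
  by_cases hxy : x = y
  · exact ⟨1, N.one_mem, rfl, hxy⟩
  obtain ⟨n, hn, hnp, hn1⟩ := hne
  obtain ⟨a, ha⟩ : ∃ a, n a ≠ a := by
    by_contra hc
    push Not at hc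
    exact hn1 (Equiv.ext hc)
  have hap : a ≠ p := by rintro rfl; exact ha hnp
  have hnap : n a ≠ p := by
    intro h
    rw [← hnp] at h
    exact hap (n.injective h)
  obtain ⟨g, hg, hgl⟩ := hG.short hk (l := [p, a, n a]) (l' := [p, x, y]) (by simp [ha.symm, hap.symm, hnap.symm])
    (by simp [hxy, hx.symm, hy.symm]) rfl h2
  simp only [List.map_cons, List.map_nil, List.cons.injEq, and_true] at hgl
  have hinv : ∀ u v, g u = v → g⁻¹ v = u := by
    intro u v h; rw [← h]; exact g.symm_apply_apply u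
  refine ⟨g * n * g⁻¹, hN g hg n hn, ?_, ?_⟩
  · show g (n (g⁻¹ p)) = p
    rw [hinv _ _ hgl.1, hnp, hgl.1]
  · show g (n (g⁻¹ x)) = y
    rw [hinv _ _ hgl.2.1, hgl.2.2]

theorem orbit_ncard_dvd (N : Subgroup (Equiv.Perm α)) (p : α) : (MulAction.orbit N p).ncard ∣ Nat.card N :=
  ⟨_, card_eq_orbit_mul N p⟩

/-- the Sylow normaliser bound in prime degree -/
theorem card_normalizer_le {q : ℕ} (hq : q.Prime) (hα : Fintype.card α = q) {G : Type*} [Group G] [Finite G]
    (φ : G →* Equiv.Perm α) (hφ : Function.Injective φ) (Q : Subgroup G) (hQ : Nat.card Q = q) :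
    Nat.card (Subgroup.normalizer (Q : Set G)) ≤ q * (q - 1) := by
  classical
  have := Fintype.ofFinite G
  set Q' := Q.map φ with hQ'
  have hcQ' : Nat.card Q' = q := by rw [hQ', Subgroup.card_map_of_injective hφ, hQ]
  have hne : ∃ c ∈ Q, c ≠ 1 := by
    by_contra hc
    push Not at hc
    have : Q = ⊥ := by
      rw [eq_bot_iff]; intro x hx; exact hc x hx
    rw [this, Subgroup.card_bot] at hQ
    exact hq.one_lt.ne hQ
  obtain ⟨c, hc, hc1⟩ := hne
  have hφc : φ c ≠ 1 := fun h => hc1 (hφ (by rw [h, map_one]))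
  obtain ⟨x1, hx1⟩ : ∃ a, φ c a ≠ a := by
    by_contra hcon
    push Not at hcon
    exact hφc (Equiv.ext hcon)
  have hcQ : φ c ∈ Q' := ⟨c, hc, rfl⟩
  have horb : (MulAction.orbit Q' x1).ncard = q := by
    have h1 := orbit_ncard_dvd Q' x1
    rw [hcQ'] at h1
    rcases (Nat.dvd_prime hq).1 h1 with h | h
    · exfalso
      rw [Set.ncard_eq_one] at h
      obtain ⟨z, hz⟩ := h
      have h2 : x1 ∈ MulAction.orbit Q' x1 := MulAction.mem_orbit_self x1
      have h3 : φ c x1 ∈ MulAction.orbit Q' x1 := ⟨⟨φ c, hcQ⟩, rfl⟩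
      rw [hz, Set.mem_singleton_iff] at h2 h3
      rw [h3] at hx1
      exact hx1 h2.symm
    · exact h
  have horb' : MulAction.orbit Q' x1 = Set.univ := by
    apply Set.eq_of_subset_of_ncard_le (Set.subset_univ _)
    rw [horb, Set.ncard_univ, Nat.card_eq_fintype_card, hα]
  -- powers of c
  have hzp : Subgroup.zpowers c = Q := by
    apply Subgroup.eq_of_le_of_card_ge
    · rw [Subgroup.zpowers_le]; exact hc
    · rw [hQ, Nat.card_zpowers]
      have h1 : orderOf c ∣ q := by
        rw [← hQ]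
        have := orderOf_dvd_natCard (⟨c, hc⟩ : Q)
        rwa [← Subgroup.orderOf_coe] at this
      rcases (Nat.dvd_prime hq).1 h1 with h | h
      · rw [orderOf_eq_one_iff] at h; exact absurd h hc1
      · rw [h]
  have key : ∀ h : G, φ h x1 = x1 → h * c = c * h → h = 1 := by
    intro h hx hcomm
    apply hφ
    rw [map_one]
    ext y
    have hy : y ∈ MulAction.orbit Q' x1 := by rw [horb']; exact Set.mem_univ _
    obtain ⟨⟨_, s, hs, rfl⟩, hsy⟩ := hy
    have hsy' : φ s x1 = y := hsy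
    have hs' : s ∈ Subgroup.zpowers c := by rw [hzp]; exact hs
    obtain ⟨i, rfl⟩ := Subgroup.mem_zpowers_iff.1 hs'
    have h2 : Commute h (c ^ i) := (show Commute h c from hcomm).zpow_right i
    show φ h y = y
    rw [← hsy', ← Equiv.Perm.mul_apply, ← map_mul, h2.eq, map_mul, Equiv.Perm.mul_apply, hx]
  -- injection
  let F : Subgroup.normalizer (Q : Set G) → α × {x : Q // x ≠ 1} := fun g =>
    (φ g x1, ⟨⟨g * c * (g : G)⁻¹, (Subgroup.mem_normalizer_iff.1 g.2 c).1 hc⟩, by
      intro h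
      have h1 := congrArg Subtype.val h
      have h2 : (g : G) * c * (g : G)⁻¹ = 1 := h1
      rw [mul_inv_eq_one, mul_eq_left] at h2
      exact hc1 h2⟩)
  have hF : Function.Injective F := by
    intro g g' h
    have h1 := congrArg Prod.fst h
    have h2 := congrArg (fun z : α × {x : Q // x ≠ 1} => ((z.2.1 : Q) : G)) h
    have h1' : φ g x1 = φ g' x1 := h1
    have h2' : (g : G) * c * (g : G)⁻¹ = (g' : G) * c * (g' : G)⁻¹ := h2
    have h3 : (g : G)⁻¹ * g' = 1 := by
      apply key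
      · rw [map_mul, map_inv, Equiv.Perm.mul_apply, ← h1']
        exact (φ (g : G)).symm_apply_apply x1
      · have : (g : G)⁻¹ * ((g : G) * c * (g : G)⁻¹) * g' = (g : G)⁻¹ * ((g' : G) * c * (g' : G)⁻¹) * g' := by rw [h2']
        have e1 : (g : G)⁻¹ * ((g : G) * c * (g : G)⁻¹) * g' = c * ((g : G)⁻¹ * g') := by group
        have e2 : (g : G)⁻¹ * ((g' : G) * c * (g' : G)⁻¹) * g' = (g : G)⁻¹ * g' * c := by group
        rw [e1, e2] at this
        exact this.symm
    rw [inv_mul_eq_one] at h3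
    exact Subtype.ext h3
  have h4 := Nat.card_le_card_of_injective F hF
  rw [Nat.card_prod, Nat.card_eq_fintype_card (α := α), hα] at h4
  have h5 : Nat.card {x : Q // x ≠ 1} = q - 1 := by
    have := Fintype.ofFinite Q
    rw [Nat.card_eq_fintype_card, Fintype.card_subtype_compl, ← Nat.card_eq_fintype_card, hQ]
    simp
  rw [h5] at h4
  exact h4

theorem simple11 {G : Subgroup (Equiv.Perm α)} (hG : ShL G 4) (h11 : Fintype.card α = 11) : IsM11 G := by
  classical
  have hcG : Nat.card G = 7920 := by rw [card_shL hG (by omega), h11]; rfl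
  refine ⟨?_, hcG⟩
  have h5p : Fact (Nat.Prime 11) := ⟨by norm_num⟩
  have hnt : Nontrivial G := by
    rw [← Finite.one_lt_card_iff_nontrivial, hcG]; norm_num
  have hne : Nonempty α := Fintype.card_pos_iff.1 (by omega)
  obtain ⟨x0⟩ := hne
  refine ⟨fun N hN => ?_⟩
  by_cases hbot : N = ⊥
  · exact Or.inl hbot
  right
  set N' := N.map G.subtype with hN'
  have hcN' : Nat.card N' = Nat.card N := Subgroup.card_map_of_injective (Subgroup.subtype_injective G)
  have hnorm : ∀ g ∈ G, ∀ n ∈ N', g * n * g⁻¹ ∈ N' := by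
    rintro g hg _ ⟨n, hn, rfl⟩
    exact ⟨⟨g, hg⟩ * n * ⟨g, hg⟩⁻¹, hN.conj_mem n hn ⟨g, hg⟩, rfl⟩
  have hne1 : ∃ n ∈ N', n ≠ 1 := by
    by_contra hc
    push Not at hc
    apply hbot
    rw [eq_bot_iff]
    intro n hn
    exact Subtype.ext (hc n ⟨n, hn, rfl⟩)
  have htr := norm_trans hG (by norm_num) (by omega) hnorm hne1
  have horb : MulAction.orbit N' x0 = Set.univ :=
    orbit_eq_of_forall N' x0 Set.univ (fun _ _ => Set.mem_univ _) (fun y _ => htr x0 y)
  have hcard := card_eq_orbit_mul N' x0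
  rw [horb, Set.ncard_univ, Nat.card_eq_fintype_card (α := α), h11] at hcard
  set S := N' ⊓ MulAction.stabilizer (Equiv.Perm α) x0 with hS
  have hS' : Nat.card S = 1 ∨ 10 ∣ Nat.card S := by
    by_cases h1 : ∃ n ∈ N', n x0 = x0 ∧ n ≠ 1
    · right
      have ht2 := norm_trans2 hG (by norm_num) (by omega) hnorm x0 h1
      obtain ⟨y0, hy0⟩ : ∃ y : α, y ≠ x0 := by
        by_contra hc
        push Not at hc
        have : Fintype.card α ≤ 1 := Fintype.card_le_one_iff.2 (fun a b => by rw [hc a, hc b])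
        omega
      have ho : MulAction.orbit S y0 = {y | y ≠ x0} := by
        apply orbit_eq_of_forall
        · rintro g ⟨_, hg⟩
          intro h
          have hg' : g x0 = x0 := hg
          rw [← hg'] at h
          exact hy0 (g.injective h)
        · intro y hy
          obtain ⟨n, hn, h3, h4⟩ := ht2 y0 y hy0 hy
          exact ⟨n, ⟨hn, h3⟩, h4⟩
      have h3 := orbit_ncard_dvd S y0
      have h4 : ({y | y ≠ x0} : Set α).ncard = 10 := by
        have : ({y | y ≠ x0} : Set α) = ((Finset.univ.erase x0 : Finset α) : Set α) := by ext y; simp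
        rw [this, Set.ncard_coe_finset, Finset.card_erase_of_mem (mem_univ _), Finset.card_univ, h11]
      rw [ho, h4] at h3
      exact h3
    · left
      push Not at h1
      have : S = ⊥ := by
        rw [eq_bot_iff]
        rintro n ⟨hn, hn2⟩
        exact h1 n hn hn2
      rw [this, Subgroup.card_bot]
  -- Frattini
  have h11N : 11 ∣ Nat.card N := by rw [← hcN', hcard]; exact Dvd.intro _ rfl
  obtain ⟨Q⟩ : Nonempty (Sylow 11 N) := inferInstance
  have hNdvd : Nat.card N ∣ 7920 := by rw [← hcG]; exact Subgroup.card_subgroup_dvd_card N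
  have hcQ : Nat.card Q = 11 := by
    have h1 : Nat.card Q ∣ 7920 := (Subgroup.card_subgroup_dvd_card (Q : Subgroup N)).trans hNdvd
    obtain ⟨m, hm⟩ := (IsPGroup.iff_card.1 Q.isPGroup')
    have hm1 : m ≤ 1 := by
      by_contra hc
      have h2 : 11 ^ 2 ∣ 7920 := (pow_dvd_pow 11 (by omega)).trans (hm ▸ h1)
      norm_num at h2
    have hm0 : m ≠ 0 := by
      rintro rfl
      have h2 := Q.card_eq_multiplicity
      have h3 : Nat.card (Q : Subgroup N) = 1 := by rw [hm]; rfl
      rw [h3] at h2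
      have h4 : 1 ≤ (Nat.card N).factorization 11 := by
        rw [← Nat.Prime.dvd_iff_one_le_factorization (by norm_num) (Nat.card_pos.ne')]
        exact h11N
      have h5 : 11 ^ 1 ≤ 11 ^ (Nat.card N).factorization 11 := Nat.pow_le_pow_right (by norm_num) h4
      omega
    have : m = 1 := by omega
    rw [hm, this]; rfl
  set Qm := (Q : Subgroup N).map N.subtype with hQm
  have hcQm : Nat.card Qm = 11 := by
    rw [hQm, Subgroup.card_map_of_injective (Subgroup.subtype_injective N)]; exact hcQ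
  have hQN : Qm ≤ N := by
    rintro _ ⟨x, _, rfl⟩; exact x.2
  set K := Subgroup.normalizer (Qm : Set G) with hK
  have hQK : Qm ≤ K := Subgroup.le_normalizer
  have hKle := card_normalizer_le (by norm_num : Nat.Prime 11) h11 G.subtype (Subgroup.subtype_injective G) Qm hcQm
  have hfr : K ⊔ N = ⊤ := Sylow.normalizer_sup_eq_top Q
  have hidx : N.index = N.relIndex K := by
    rw [← Subgroup.relIndex_top_right, ← hfr, Subgroup.relIndex_sup_right]
  have hdv : N.relIndex K ∣ Qm.relIndex K := Subgroup.relIndex_dvd_of_le_left K hQN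
  have hQi : Nat.card Qm * Qm.relIndex K = Nat.card K := by
    rw [← Subgroup.relIndex_bot_left, ← Subgroup.relIndex_bot_left]
    exact Subgroup.relIndex_mul_relIndex ⊥ Qm K bot_le hQK
  rw [hcQm] at hQi
  -- Sylow count
  have hfac : (Nat.card G).factorization 11 = 1 := by
    rw [hcG, Nat.factorization_def _ (by norm_num : Nat.Prime 11)]
    have : (7920 : ℕ) = 11 ^ 1 * 720 := by norm_num
    rw [this, padicValNat.mul (by norm_num) (by norm_num), padicValNat.prime_pow]
    rw [padicValNat.eq_zero_of_not_dvd (by norm_num)]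
  set R : Sylow 11 G := Sylow.ofCard Qm (by rw [hcQm, hfac]; rfl) with hR
  have hRi : Nat.card (Sylow 11 G) = K.index := by
    rw [R.card_eq_index_normalizer]; rfl
  have hmod := card_sylow_modEq_one 11 G
  rw [hRi] at hmod
  unfold Nat.ModEq at hmod
  have hKi := Subgroup.card_mul_index K
  rw [hcG, ← hQi] at hKi
  change Nat.card K ≤ 11 * (11 - 1) at hKle
  have hj : Qm.relIndex K ≤ 10 := by omega
  have hj5 : Qm.relIndex K = 5 := by
    generalize Qm.relIndex K = j at hKi hj
    interval_cases j <;> omega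
  rw [hj5, ← hidx] at hdv
  have hNi := Subgroup.card_mul_index N
  rw [hcG] at hNi
  have h15 : N.index = 1 ∨ N.index = 5 := (Nat.dvd_prime (by norm_num)).1 hdv
  rcases h15 with h | h
  · exact Subgroup.index_eq_one.1 h
  · exfalso
    rw [h] at hNi
    rw [hcN'] at hcard
    rcases hS' with h1 | ⟨j, h1⟩
    · rw [h1] at hcard; omega
    · rw [h1] at hcard; omega

theorem simple12 {G : Subgroup (Equiv.Perm α)} (hG : ShL G 5) (h12 : Fintype.card α = 12) : IsM12 G := by
  classical
  have hcG : Nat.card G = 95040 := by rw [card_shL hG (by omega), h12]; rfl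
  refine ⟨?_, hcG⟩
  have hnt : Nontrivial G := by
    rw [← Finite.one_lt_card_iff_nontrivial, hcG]; norm_num
  have hne : Nonempty α := Fintype.card_pos_iff.1 (by omega)
  obtain ⟨x0⟩ := hne
  have h11 : IsM11 (stp G x0) := simple11 (step hG x0) (by rw [card_ne, h12])
  have hs11 := h11.1
  refine ⟨fun N hN => ?_⟩
  by_cases hbot : N = ⊥
  · exact Or.inl hbot
  right
  set N' := N.map G.subtype with hN'
  have hcN' : Nat.card N' = Nat.card N := Subgroup.card_map_of_injective (Subgroup.subtype_injective G)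
  have hnorm : ∀ g ∈ G, ∀ n ∈ N', g * n * g⁻¹ ∈ N' := by
    rintro g hg _ ⟨n, hn, rfl⟩
    exact ⟨⟨g, hg⟩ * n * ⟨g, hg⟩⁻¹, hN.conj_mem n hn ⟨g, hg⟩, rfl⟩
  have hne1 : ∃ n ∈ N', n ≠ 1 := by
    by_contra hc
    push Not at hc
    apply hbot
    rw [eq_bot_iff]
    intro n hn
    exact Subtype.ext (hc n ⟨n, hn, rfl⟩)
  have htr := norm_trans hG (by norm_num) (by omega) hnorm hne1
  have horb : MulAction.orbit N' x0 = Set.univ :=
    orbit_eq_of_forall N' x0 Set.univ (fun _ _ => Set.mem_univ _) (fun y _ => htr x0 y)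
  have hcard := card_eq_orbit_mul N' x0
  rw [horb, Set.ncard_univ, Nat.card_eq_fintype_card (α := α), h12] at hcard
  -- the stabiliser
  let ρ : stp G x0 →* G := ((Equiv.Perm.ofSubtype (p := fun x => x ≠ x0)).comp (stp G x0).subtype).codRestrict G (fun σ => σ.2)
  have hρ : ∀ σ : stp G x0, ((ρ σ : G) : Equiv.Perm α) = Equiv.Perm.ofSubtype (σ : Equiv.Perm {x // x ≠ x0}) := fun _ => rfl
  have hTn : (N.comap ρ).Normal := hN.comap ρ
  have hTm : ∀ σ : stp G x0, σ ∈ N.comap ρ ↔ Equiv.Perm.ofSubtype (σ : Equiv.Perm {x // x ≠ x0}) ∈ N' := by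
    intro σ
    rw [Subgroup.mem_comap, ← hρ]
    constructor
    · intro h; exact ⟨_, h, rfl⟩
    · rintro ⟨m, hm, hme⟩
      have : m = ρ σ := Subtype.ext hme
      rw [← this]; exact hm
  have hrep : ∀ g ∈ G, g x0 = x0 → ∃ σ : stp G x0, Equiv.Perm.ofSubtype (σ : Equiv.Perm {x // x ≠ x0}) = g := by
    intro g hg hgp
    have hp : ∀ x, g x ≠ x0 ↔ x ≠ x0 := by
      intro x
      constructor
      · rintro h rfl; exact h hgp
      · intro h h'
        rw [← hgp] at h'
        exact h (g.injective h')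
    have e : Equiv.Perm.ofSubtype (g.subtypePerm (p := fun x => x ≠ x0) hp) = g := by
      rw [Equiv.Perm.ofSubtype_subtypePerm]
      rintro x hx rfl; exact hx hgp
    exact ⟨⟨g.subtypePerm hp, by show Equiv.Perm.ofSubtype _ ∈ G; rw [e]; exact hg⟩, e⟩
  have hNG : ∀ n ∈ N', n ∈ G := by rintro _ ⟨n, _, rfl⟩; exact n.2
  rcases hs11.eq_bot_or_eq_top_of_normal (N.comap ρ) hTn with h | h
  · exfalso
    -- N is regular
    have hreg : ∀ n ∈ N', n x0 = x0 → n = 1 := by
      intro n hn hx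
      obtain ⟨σ, hσ⟩ := hrep n (hNG n hn) hx
      have h1 : σ ∈ N.comap ρ := by
        rw [hTm, hσ]; exact hn
      rw [h, Subgroup.mem_bot] at h1
      rw [← hσ, h1]
      exact map_one _
    have hS : N' ⊓ MulAction.stabilizer (Equiv.Perm α) x0 = ⊥ := by
      rw [eq_bot_iff]
      rintro n ⟨hn, hn2⟩
      exact hreg n hn hn2
    rw [hS, Subgroup.card_bot, mul_one] at hcard
    have f2 : Fact (Nat.Prime 2) := ⟨by norm_num⟩
    have f3 : Fact (Nat.Prime 3) := ⟨by norm_num⟩
    obtain ⟨u, hu⟩ := exists_prime_orderOf_dvd_card' (G := N') 2 (by rw [hcard]; norm_num)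
    obtain ⟨v, hv⟩ := exists_prime_orderOf_dvd_card' (G := N') 3 (by rw [hcard]; norm_num)
    have hu1 : (u : Equiv.Perm α) x0 ≠ x0 := by
      intro hh
      have := hreg u u.2 hh
      have : u = 1 := Subtype.ext this
      rw [this, orderOf_one] at hu; omega
    have hv1 : (v : Equiv.Perm α) x0 ≠ x0 := by
      intro hh
      have := hreg v v.2 hh
      have : v = 1 := Subtype.ext this
      rw [this, orderOf_one] at hv; omega
    obtain ⟨g, hg, hgl⟩ := hG.short (by omega) (l := [x0, (u : Equiv.Perm α) x0]) (l' := [x0, (v : Equiv.Perm α) x0])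
      (by simp [hu1.symm]) (by simp [hv1.symm]) rfl (by norm_num)
    simp only [List.map_cons, List.map_nil, List.cons.injEq, and_true] at hgl
    have h1 := hnorm g hg u u.2
    have h2 : (v : Equiv.Perm α)⁻¹ * (g * u * g⁻¹) = 1 := by
      apply hreg _ (N'.mul_mem (N'.inv_mem v.2) h1)
      show (v : Equiv.Perm α)⁻¹ (g ((u : Equiv.Perm α) (g⁻¹ x0))) = x0
      have : g⁻¹ x0 = x0 := by
        have := g.symm_apply_apply x0
        rw [hgl.1] at this
        exact this
      rw [this, hgl.2]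
      exact (v : Equiv.Perm α).symm_apply_apply x0
    rw [inv_mul_eq_one] at h2
    have h3 : orderOf (v : Equiv.Perm α) = orderOf (u : Equiv.Perm α) := by
      rw [h2]
      exact MulEquiv.orderOf_eq (MulAut.conj g) (u : Equiv.Perm α)
    rw [Subgroup.orderOf_coe, Subgroup.orderOf_coe, hu, hv] at h3
    omega
  · rw [eq_top_iff]
    intro g _
    obtain ⟨n, hn, hnx⟩ := htr x0 ((g : Equiv.Perm α) x0)
    have h1 : (n⁻¹ * (g : Equiv.Perm α)) x0 = x0 := by
      show n⁻¹ ((g : Equiv.Perm α) x0) = x0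
      rw [← hnx]; exact n.symm_apply_apply x0
    obtain ⟨σ, hσ⟩ := hrep _ (G.mul_mem (G.inv_mem (hNG n hn)) g.2) h1
    have h2 : σ ∈ N.comap ρ := by rw [h]; exact Subgroup.mem_top _
    have h3 : Equiv.Perm.ofSubtype (σ : Equiv.Perm {x // x ≠ x0}) ∈ N' := (hTm σ).1 h2
    rw [hσ] at h3
    have h4 := N'.mul_mem hn h3
    rw [mul_inv_cancel_left] at h4
    obtain ⟨m, hm, hme⟩ := h4
    have : m = g := Subtype.ext hme
    rw [← this]; exact hm

end Cfsg.Agent.Lib.Jordan
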